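import Mathlib
import Cfsg.Prelude.Def_Blocks

/-! Definitions for the McKay equality for `SL₂(q)`, `q` odd (S2436). -/

set_option autoImplicit false

namespace Cfsg.Agent.Lib.Helper16.McK

open Cfsg

/-- number of irreducible characters of degree prime to `ℓ` -/
noncomputable def mck (X : Type*) [Group X] (ℓ : ℕ) : ℕ :=
  Nat.card {χ : IrrCharacter X // ¬ ℓ ∣ charDegree (χ : X → ℂ)}

/-- number of irreducible characters of degree `d` -/
noncomputable def nd (X : Type*) [Group X] (d : ℕ) : ℕ :=
  Nat.card {χ : IrrCharacter X // charDegree (χ : X → ℂ) = d}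

end Cfsg.Agent.Lib.Helper16.McK
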