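import Cfsg.Agent.Lib.Helper16.McK.Defs
import Cfsg.Agent.Lib.Helper41.CharAux

set_option autoImplicit false

namespace Cfsg.Agent.Lib.Helper16.McK

open Cfsg Cfsg.Agent.Lib.Helper41 Cfsg.Agent.Lib.Helper15

/-- A virtual character of norm two all of whose constituents have multiplicity `1` is the sum of two distinct
irreducible characters. -/
theorem NT_decomp {G : Type*} [Group G] [Fintype G] {X : G → ℂ} (hX : IsGeneralizedCharacter G X)
    (hXX : classInner X X = 2)
    (hpos : ∀ η : G → ℂ, IsIrrCharacter G η → classInner X η ≠ 0 → classInner X η = 1) :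
    ∃ ξ η : G → ℂ, IsIrrCharacter G ξ ∧ IsIrrCharacter G η ∧ ξ ≠ η ∧ X = ξ + η := by
  have hX0 : X ≠ 0 := by
    rintro rfl
    have : classInner (0 : G → ℂ) 0 = 0 := by simp [classInner]
    rw [this] at hXX
    norm_num at hXX
  obtain ⟨ξ, hξ, hne⟩ : ∃ ξ : G → ℂ, IsIrrCharacter G ξ ∧ classInner X ξ ≠ 0 := by
    by_contra hcon
    push Not at hcon
    exact hX0 (cf_eq_zero (Cfsg.Agent.Lib.Helper26.gen_classFunction hX) hcon)
  have h1 := hpos ξ hξ hne
  have hcomm : classInner ξ X = classInner X ξ :=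
    Cfsg.Agent.Lib.Helper26.gen_inner_comm (Cfsg.Agent.Lib.Helper26.gen_of_irr hξ) hX
  have hgen : IsGeneralizedCharacter G (X - ξ) :=
    Cfsg.Agent.Lib.Helper26.gen_sub hX (Cfsg.Agent.Lib.Helper26.gen_of_irr hξ)
  have hn1 : classInner (X - ξ) (X - ξ) = 1 := by
    rw [classInner_sub_left, classInner_sub_right, classInner_sub_right, hXX, hcomm, h1,
      irr_inner_self hξ]
    ring
  rcases Cfsg.Agent.Lib.Helper26.gen_norm_one hgen hn1 with h | h
  · refine ⟨ξ, X - ξ, hξ, h, ?_, by abel⟩
    intro heq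
    have h2 : classInner (X - ξ) ξ = 0 := by
      rw [classInner_sub_left, h1, irr_inner_self hξ]; ring
    rw [← heq, irr_inner_self hξ] at h2
    exact one_ne_zero h2
  · exfalso
    -- X = ξ - η'
    set η' := -(X - ξ) with hη'
    have hXe : X = ξ - η' := by rw [hη']; abel
    by_cases he : ξ = η'
    · apply hX0
      rw [hXe, he, sub_self]
    · have h2 : classInner X η' = -1 := by
        rw [hXe, classInner_sub_left, irr_inner_ne hξ h he, irr_inner_self h]; ring
      have h3 := hpos η' h (by rw [h2]; norm_num)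
      rw [h2] at h3
      norm_num at h3

/-- counting version -/
theorem NT_card {G : Type*} [Group G] [Fintype G] {X : G → ℂ} (hX : IsGeneralizedCharacter G X)
    (hXX : classInner X X = 2)
    (hpos : ∀ η : G → ℂ, IsIrrCharacter G η → classInner X η ≠ 0 → classInner X η = 1) :
    Nat.card {χ : IrrCharacter G // classInner X (χ : G → ℂ) ≠ 0} = 2 := by
  obtain ⟨ξ, η, hξ, hη, hne, hXe⟩ := NT_decomp hX hXX hpos
  have hξ1 : classInner X ξ ≠ 0 := by
    rw [hXe, classInner_add_left, irr_inner_self hξ, irr_inner_ne hη hξ (Ne.symm hne)]; norm_num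
  have hη1 : classInner X η ≠ 0 := by
    rw [hXe, classInner_add_left, irr_inner_self hη, irr_inner_ne hξ hη hne]; norm_num
  rw [Nat.card_eq_two_iff]
  refine ⟨⟨⟨ξ, hξ⟩, hξ1⟩, ⟨⟨η, hη⟩, hη1⟩, ?_, ?_⟩
  · intro h
    apply hne
    exact congrArg (fun x => ((x.1 : IrrCharacter G) : G → ℂ)) h
  · ext ⟨⟨χ, hχ⟩, hc⟩
    simp only [Set.mem_insert_iff, Set.mem_singleton_iff, Set.mem_univ, iff_true]
    change classInner X χ ≠ 0 at hc
    rw [hXe, classInner_add_left] at hc
    by_cases h1 : classInner ξ χ ≠ 0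
    · left
      apply Subtype.ext; apply Subtype.ext
      exact (irr_eq_of_inner_ne_zero hξ hχ h1).symm
    · right
      push Not at h1
      rw [h1, zero_add] at hc
      apply Subtype.ext; apply Subtype.ext
      exact (irr_eq_of_inner_ne_zero hη hχ hc).symm

end Cfsg.Agent.Lib.Helper16.McK
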